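import Cfsg.Agent.Lib.TC.Enc

namespace Cfsg.Agent.Lib.CosetCert.D.HeN.St2.CT

open Cfsg.Agent.Lib.TC.Enc

set_option maxRecDepth 100000

/-- The chunks of the certificate. -/
noncomputable def tree : Tr Nat :=
  (Tr.leaf (nat_lit 0xa8124d4297195c4c8240b8225e5a7c804832e053af0dae090e19876025a94124aa810b932b20249445192775840480e9b29ee8726090190833014d08120994085b9128824321e04603220049201810a42200090042b006800))

end Cfsg.Agent.Lib.CosetCert.D.HeN.St2.CT
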