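import Cfsg.Agent.Lib.CosetCert.D.HeN.Tbl
import Cfsg.Agent.Lib.CosetCert.D.HeN.St2.CT

namespace Cfsg.Agent.Lib.CosetCert.D.HeN.St2.Tab

open Cfsg.Agent.Lib.CosetCert Cfsg.Agent.Lib.TC.Core Cfsg.Agent.Lib.TC.Enc Cfsg.Agent.Lib.TC.Pres Cfsg.Agent.Lib.TC.Perm Cfsg.Agent.Lib.TC.Main

set_option maxRecDepth 100000

open Cfsg.Agent.Lib.CosetCert.D.HeN.Tbl

/-- The chunks. -/
noncomputable def ctree : Tr Nat := Cfsg.Agent.Lib.CosetCert.D.HeN.St2.CT.tree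

/-- The relator rotations. -/
noncomputable def rotT : Tr (List Nat) := (Tr.node (Tr.node (Tr.node (Tr.node (Tr.leaf []) (Tr.leaf [1,1])) (Tr.node (Tr.leaf [1,2,1,2,1,2]) (Tr.leaf []))) (Tr.node (Tr.node (Tr.leaf [0,2,0,2]) (Tr.leaf [])) (Tr.node (Tr.leaf [1,0,1,0,1,2,1,0,1,0,1,0,1,0,1,2,1,0,1,0]) (Tr.leaf [])))) (Tr.node (Tr.node (Tr.node (Tr.leaf [2,0,2,0]) (Tr.leaf [2,2])) (Tr.node (Tr.leaf [0,1,0,1,0,1,2,1,0,1,0,1,0,1,0,1,2,1,0,1]) (Tr.leaf []))) (Tr.node (Tr.node (Tr.leaf [2,1,2,1,2,1]) (Tr.leaf [])) (Tr.node (Tr.leaf [0,0]) (Tr.leaf [])))))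

/-- The witnesses of the rotations. -/
noncomputable def witT : Tr (Nat × Nat × Bool) := (Tr.node (Tr.node (Tr.node (Tr.node (Tr.leaf (0,0,false)) (Tr.leaf (3,1,false))) (Tr.node (Tr.leaf (1,2,false)) (Tr.leaf (0,0,false)))) (Tr.node (Tr.node (Tr.leaf (0,2,false)) (Tr.leaf (0,0,false))) (Tr.node (Tr.leaf (2,3,false)) (Tr.leaf (0,0,false))))) (Tr.node (Tr.node (Tr.node (Tr.leaf (0,1,false)) (Tr.leaf (3,2,false))) (Tr.node (Tr.leaf (2,2,false)) (Tr.leaf (0,0,false)))) (Tr.node (Tr.node (Tr.leaf (1,1,false)) (Tr.leaf (0,0,false))) (Tr.node (Tr.leaf (3,0,false)) (Tr.leaf (0,0,false))))))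

/-- The subgroup rotations. -/
noncomputable def srotT : Tr (List Nat × Nat × List Nat) := (Tr.node (Tr.leaf ([],0,[])) (Tr.leaf ([],1,[])))

/-- The certificate. -/
noncomputable def cert : Cert :=
  mkCert 3 12 36 1 10 12 7 127 59 14 42 53 16383 2047 6 4 63 15 10 8 3 ctree.get rotT.get srotT.get

/-- The relators. -/
def rels : List (List Nat) :=
  [[0,2,0,2],
   [1,2,1,2,1,2],
   [0,1,0,1,0,1,0,1,2,1,0,1,0,1,0,1,0,1,2,1]]

/-- The words of the subgroup. -/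
def subs : List (List Nat) :=
  [[0],
   [1]]

end Cfsg.Agent.Lib.CosetCert.D.HeN.St2.Tab
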